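import Cfsg.Agent.GLn.NilCount
import Cfsg.Agent.HForm.Witt

/-! Fitting decomposition counts in symplectic spaces. -/

set_option autoImplicit false

open Matrix Module

namespace Cfsg.Agent.GLn

theorem card_induced {G Y : Type*} [Group G] [Finite G] [Finite Y] (act : G → Y → Y)
    (h1 : ∀ y, act 1 y = y) (hm : ∀ g h y, act (g * h) y = act g (act h y))
    (H : Subgroup G) (X Z : Y → Prop) (hX : ∀ h ∈ H, ∀ x, X x → X (act h x))
    (hH : ∀ g x, X x → X (act g x) → g ∈ H) (hZ : ∀ y, Z y ↔ ∃ g x, X x ∧ act g x = y) :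
    Nat.card {y // Z y} * Nat.card H = Nat.card G * Nat.card {x // X x} := by
  classical
  let Φ : G × {x // X x} → {y // Z y} := fun p => ⟨act p.1 p.2, (hZ _).2 ⟨_, _, p.2.2, rfl⟩⟩
  have hfib : ∀ y, Nat.card {p // Φ p = y} = Nat.card H := by
    rintro ⟨y, hy⟩
    obtain ⟨g, x, hx, rfl⟩ := (hZ y).1 hy
    symm
    refine Nat.card_congr (Equiv.ofBijective (fun h => ⟨(g * h, ⟨act (h⁻¹ : H) x,
      hX _ (h⁻¹).2 x hx⟩), Subtype.ext ?_⟩) ⟨?_, ?_⟩)
    · simp only [Φ, ← hm]; simp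
    · intro a b e
      exact Subtype.ext (mul_left_cancel (congrArg (fun p => p.1.1) e))
    · rintro ⟨⟨g', x', hx'⟩, e⟩
      have e' : act g' x' = act g x := congrArg Subtype.val e
      have e2 : act (g⁻¹ * g') x' = x := by rw [hm, e', ← hm, inv_mul_cancel, h1]
      refine ⟨⟨g⁻¹ * g', hH _ _ hx' (e2 ▸ hx)⟩, Subtype.ext (Prod.ext (by simp) (Subtype.ext ?_))⟩
      change act (g⁻¹ * g')⁻¹ x = x'
      rw [← e2, ← hm, inv_mul_cancel, h1]
  have := Fintype.ofFinite {y // Z y}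
  have h := Nat.card_congr (Equiv.sigmaFiberEquiv Φ)
  rw [Nat.card_sigma, Finset.sum_congr rfl fun T _ => hfib T, Finset.sum_const, Finset.card_univ,
    ← Nat.card_eq_fintype_card, Nat.card_prod, smul_eq_mul] at h
  exact h

variable {F : Type*} [Field F]

section basis
variable {V : Type*} [AddCommGroup V] [Module F V]

theorem exists_block_basis {α β : Type*} [Fintype α] [DecidableEq α] [Fintype β] [DecidableEq β]
    {W W' : Submodule F V} (h : IsCompl W W') (b₁ : Basis α F W) (b₂ : Basis β F W') :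
    ∃ b : Basis (α ⊕ β) F V, (∀ i, b (.inl i) = b₁ i) ∧ (∀ j, b (.inr j) = b₂ j) ∧
      ∀ (φ : End F V) (h₁ : ∀ x ∈ W, φ x ∈ W) (h₂ : ∀ x ∈ W', φ x ∈ W'),
        LinearMap.toMatrix b b φ = fromBlocks (LinearMap.toMatrix b₁ b₁ (φ.restrict h₁)) 0 0
          (LinearMap.toMatrix b₂ b₂ (φ.restrict h₂)) := by
  refine ⟨(b₁.prod b₂).map (Submodule.prodEquivOfIsCompl W W' h), fun i => by simp,
    fun j => by simp, fun φ h₁ h₂ => ?_⟩
  rw [← LinearMap.toMatrix_prodMap]
  ext i j
  simp only [LinearMap.toMatrix_apply, Basis.map_repr, LinearEquiv.trans_apply, Basis.map_apply]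
  congr 2
  rw [LinearEquiv.symm_apply_eq]
  simp

/-- Fitting decomposition of `φ` with respect to `f`. -/
theorem exists_fitting_sub [FiniteDimensional F V] (f : End F V) :
    ∃ n, IsCompl (LinearMap.ker (f ^ n)) (LinearMap.range (f ^ n)) ∧ 0 < n := by
  obtain ⟨n, h1, h2⟩ := (f.eventually_isCompl_ker_pow_range_pow.and
    (Filter.eventually_gt_atTop 0)).exists
  exact ⟨n, h1, h2⟩

end basis

section defs
variable {ι κ : Type*} [Fintype ι] [DecidableEq ι] [Fintype κ] [DecidableEq κ]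

/-- isometry group of a Gram matrix -/
def isoM (J : Matrix ι ι F) : Subgroup (GL ι F) where
  carrier := {g | g.valᵀ * J * g.val = J}
  one_mem' := by simp
  mul_mem' := fun {a b} ha hb => by
    simp only [Set.mem_ofPred_eq, Units.val_mul, transpose_mul] at *
    calc _ = b.valᵀ * (a.valᵀ * J * a.val) * b.val := by simp only [Matrix.mul_assoc]
      _ = J := by rw [ha, hb]
  inv_mem' := fun {a} ha => by
    simp only [Set.mem_ofPred_eq] at *
    conv_lhs => rw [← ha]
    calc _ = (a.val * (a⁻¹).val)ᵀ * J * (a.val * (a⁻¹).val) := by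
          simp only [transpose_mul, Matrix.mul_assoc]
      _ = J := by simp

/-- the quadratic relation -/
def SRel (l n : F) (J T : Matrix ι ι F) : Prop := l • (Tᵀ * J * T) + Tᵀ * J + J * T + n • J = 0

/-- the Fitting polynomial -/
def sff {A : Type*} [Ring A] [Algebra F A] (n : F) (T : A) : A := T + n • (T * T)

theorem sff_map {A B : Type*} [Ring A] [Algebra F A] [Ring B] [Algebra F B] (e : A ≃ₐ[F] B)
    (n : F) (T : A) : e (sff n T) = sff n (e T) := by simp [sff]

theorem toMatrix_sff {V : Type*} [AddCommGroup V] [Module F V] (b : Basis ι F V) (n : F)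
    (φ : End F V) : LinearMap.toMatrix b b (sff n φ) = sff n (LinearMap.toMatrix b b φ) :=
  sff_map (A := End F V) (LinearMap.toMatrixAlgEquiv b) n φ

theorem sff_blocks (n : F) (A : Matrix ι ι F) (B : Matrix κ κ F) :
    sff n (fromBlocks A 0 0 B) = fromBlocks (sff n A) 0 0 (sff n B) := by
  simp [sff, fromBlocks_multiply, fromBlocks_smul, fromBlocks_add]

theorem sff_semiconj (n : F) {h : Matrix ι ι F} {A B : Matrix ι ι F} (e : h * A = B * h) :
    h * sff n A = sff n B * h := by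
  simp only [sff, Matrix.mul_add, Matrix.add_mul, Matrix.mul_smul, Matrix.smul_mul]
  rw [← Matrix.mul_assoc, e, Matrix.mul_assoc B, e, Matrix.mul_assoc]

theorem SRel.of_semiconj {l n : F} {J : Matrix ι ι F} {J' : Matrix κ κ F} {P : Matrix ι κ F}
    {T : Matrix ι ι F} {T' : Matrix κ κ F} (h : SRel l n J T) (hP : Pᵀ * J * P = J')
    (e : T * P = P * T') : SRel l n J' T' := by
  have e' : Pᵀ * Tᵀ = T'ᵀ * Pᵀ := by rw [← transpose_mul, e, transpose_mul]
  have := congrArg (fun M => Pᵀ * M * P) h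
  simp only [Matrix.mul_add, Matrix.add_mul, Matrix.mul_smul, Matrix.smul_mul, Matrix.mul_zero,
    Matrix.zero_mul] at this
  rw [SRel, ← this, ← hP]
  simp only [← Matrix.mul_assoc, e']
  simp only [Matrix.mul_assoc, e]

/-- conjugation -/
def cj (g : GL ι F) (T : Matrix ι ι F) : Matrix ι ι F := g.val * T * (g⁻¹).val

theorem cj_mul_self (g : GL ι F) (T : Matrix ι ι F) : cj g T * g.val = g.val * T := by
  simp [cj, Matrix.mul_assoc]

theorem SRel.cj {l n : F} {J T : Matrix ι ι F} (h : SRel l n J T) {g : GL ι F} (hg : g ∈ isoM J) :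
    SRel l n J (cj g T) :=
  h.of_semiconj ((isoM J).inv_mem hg) (by simp [GLn.cj, ← Matrix.mul_assoc])

theorem charpoly_sff_cj (n : F) (g : GL ι F) (T : Matrix ι ι F) :
    (sff n (cj g T)).charpoly = (sff n T).charpoly := by
  have : sff n (cj g T) = g.val * sff n T * (g⁻¹).val := by
    rw [sff_semiconj n (cj_mul_self g T).symm, Matrix.mul_assoc]; simp
  rw [this, Matrix.coe_units_inv, Matrix.charpoly_units_conj]

end defs

section blocks
variable {α β : Type*} [Fintype α] [DecidableEq α] [Fintype β] [DecidableEq β]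

/-- block diagonal isometries -/
def isoB (J : Matrix (α ⊕ β) (α ⊕ β) F) : Subgroup (isoM J) :=
  ((MonoidHom.range (G := GL α F × GL β F)
    { toFun := fun x => glBlocks x.1 x.2
      map_one' := Units.ext (by simp [glBlocks])
      map_mul' := fun x y => Units.ext (by simp [glBlocks, fromBlocks_multiply]) })).subgroupOf _

theorem mem_isoB {J : Matrix (α ⊕ β) (α ⊕ β) F} {g : isoM J} :
    g ∈ isoB J ↔ ∃ u v, glBlocks u v = g.1 := by
  simp [isoB, Subgroup.mem_subgroupOf]

theorem card_isoB (J : Matrix (α ⊕ β) (α ⊕ β) F) :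
    Nat.card (isoB J) = Nat.card {x : GL α F × GL β F // glBlocks x.1 x.2 ∈ isoM J} := by
  symm
  refine Nat.card_congr (Equiv.ofBijective (fun x => ⟨⟨_, x.2⟩, mem_isoB.2 ⟨_, _, rfl⟩⟩) ⟨?_, ?_⟩)
  · intro x y e
    have := congrArg (fun g => g.1.1.1) e
    simp only [glBlocks, fromBlocks_inj] at this
    exact Subtype.ext (Prod.ext (Units.ext this.1) (Units.ext this.2.2.2))
  · rintro ⟨g, hg⟩
    obtain ⟨u, v, e⟩ := mem_isoB.1 hg
    exact ⟨⟨(u, v), e ▸ g.2⟩, Subtype.ext (Subtype.ext e)⟩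

theorem card_blocks_induced [Finite F] (J : Matrix (α ⊕ β) (α ⊕ β) F) (m : F)
    (R Z : Matrix (α ⊕ β) (α ⊕ β) F → Prop) (hR : ∀ g ∈ isoM J, ∀ T, R T → R (cj g T))
    (hZ : ∀ T, Z T ↔ ∃ g ∈ isoM J, ∃ A B, IsNilpotent (sff m A) ∧ IsUnit (sff m B) ∧
      R (fromBlocks A 0 0 B) ∧ cj g (fromBlocks A 0 0 B) = T) :
    Nat.card {T // Z T} * Nat.card {x : GL α F × GL β F // glBlocks x.1 x.2 ∈ isoM J} =
      Nat.card (isoM J) * Nat.card {x : Matrix α α F × Matrix β β F //
        IsNilpotent (sff m x.1) ∧ IsUnit (sff m x.2) ∧ R (fromBlocks x.1 0 0 x.2)} := by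
  rw [← card_isoB, card_induced (fun (g : isoM J) T => cj g.1 T) (by simp [cj])
    (by simp [cj, Matrix.mul_assoc]) (isoB J) (fun T => ∃ A B, IsNilpotent (sff m A) ∧
      IsUnit (sff m B) ∧ R (fromBlocks A 0 0 B) ∧ fromBlocks A 0 0 B = T) Z]
  · congr 1
    symm
    refine Nat.card_congr (Equiv.ofBijective (fun x => ⟨fromBlocks x.1.1 0 0 x.1.2, _, _,
      x.2.1, x.2.2.1, x.2.2.2, rfl⟩) ⟨?_, ?_⟩)
    · intro x y e
      have := congrArg Subtype.val e
      simp only [fromBlocks_inj] at this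
      exact Subtype.ext (Prod.ext this.1 this.2.2.2)
    · rintro ⟨_, A, B, h1, h2, h3, rfl⟩
      exact ⟨⟨(A, B), h1, h2, h3⟩, rfl⟩
  · rintro h hh _ ⟨A, B, h1, h2, h3, rfl⟩
    obtain ⟨u, v, e⟩ := mem_isoB.1 hh
    have e2 : cj h.1 (fromBlocks A 0 0 B) = fromBlocks (cj u A) 0 0 (cj v B) := by
      rw [← e]
      change fromBlocks _ _ _ _ * _ * fromBlocks _ _ _ _ = _
      simp [fromBlocks_multiply, cj]
    have s1 : sff m (cj u A) = u.val * sff m A * (u⁻¹).val := by
      rw [sff_semiconj m (cj_mul_self u A).symm, Matrix.mul_assoc]; simp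
    have s2 : sff m (cj v B) = v.val * sff m B * (v⁻¹).val := by
      rw [sff_semiconj m (cj_mul_self v B).symm, Matrix.mul_assoc]; simp
    refine ⟨cj u A, cj v B, ?_, ?_, e2 ▸ hR _ h.2 _ h3, e2.symm⟩
    · obtain ⟨k, hk⟩ := h1
      exact ⟨k, by rw [s1, Units.conj_pow, hk, mul_zero, zero_mul]⟩
    · rw [s2]; exact (v.isUnit.mul h2).mul (v⁻¹).isUnit
  · rintro g _ ⟨A, B, h1, h2, h3, rfl⟩ ⟨A', B', h1', h2', h3', e⟩
    have e1 := sff_semiconj m (cj_mul_self g.1 (fromBlocks A 0 0 B)).symm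
    rw [← e, sff_blocks, sff_blocks] at e1
    obtain ⟨u, v, e2, -, -⟩ := eq_fromBlocks_of_intertwine h1 h1' h2 h2' e1
    have hd := Matrix.GeneralLinearGroup.det_ne_zero g.1
    rw [e2, Matrix.det_fromBlocks_zero₁₂] at hd
    exact mem_isoB.2 ⟨Matrix.GeneralLinearGroup.mkOfDetNeZero u (left_ne_zero_of_mul hd),
      Matrix.GeneralLinearGroup.mkOfDetNeZero v (right_ne_zero_of_mul hd), Units.ext e2.symm⟩
  · intro T
    rw [hZ]
    constructor
    · rintro ⟨g, hg, A, B, h1, h2, h3, e⟩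
      exact ⟨⟨g, hg⟩, _, ⟨A, B, h1, h2, h3, rfl⟩, e⟩
    · rintro ⟨g, _, ⟨A, B, h1, h2, h3, rfl⟩, e⟩
      exact ⟨g.1, g.2, A, B, h1, h2, h3, e⟩

theorem fit_of_bases {ι : Type*} [Fintype ι] [DecidableEq ι] (T : Matrix ι ι F) (m : F) {n : ℕ}
    {t : End F (ι → F)} (ht : t = toLin' T)
    (hc : IsCompl (LinearMap.ker (sff m t ^ n)) (LinearMap.range (sff m t ^ n)))
    (hn : 0 < n) (b₁ : Basis α F (LinearMap.ker (sff m t ^ n)))
    (b₂ : Basis β F (LinearMap.range (sff m t ^ n))) :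
    ∃ (P : Matrix ι (α ⊕ β) F) (Q : Matrix (α ⊕ β) ι F) (A : Matrix α α F) (B : Matrix β β F),
      P * Q = 1 ∧ Q * P = 1 ∧ (∀ i, Pᵀ (.inl i) = b₁ i) ∧ (∀ j, Pᵀ (.inr j) = b₂ j) ∧
      T * P = P * fromBlocks A 0 0 B ∧ IsNilpotent (sff m A) ∧ IsUnit (sff m B) ∧
      (sff m T).charpoly.natTrailingDegree = Fintype.card α := by
  obtain ⟨b, e1, e2, e3⟩ := exists_block_basis hc b₁ b₂
  have hcm : Commute t (sff m t ^ n) := by
    refine Commute.pow_right ?_ n
    exact (Commute.refl t).add_right (((Commute.refl t).mul_right (Commute.refl t)).smul_right m)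
  have h₁ : ∀ x ∈ LinearMap.ker (sff m t ^ n), t x ∈ LinearMap.ker (sff m t ^ n) := fun x hx => by
    rw [LinearMap.mem_ker] at hx ⊢
    rw [← Module.End.mul_apply, ← hcm.eq, Module.End.mul_apply, hx, map_zero]
  have h₂ : ∀ x ∈ LinearMap.range (sff m t ^ n), t x ∈ LinearMap.range (sff m t ^ n) := by
    rintro _ ⟨y, rfl⟩
    exact ⟨t y, by rw [← Module.End.mul_apply, ← hcm.eq, Module.End.mul_apply]⟩
  have res : ∀ {W : Submodule F (ι → F)} (h : ∀ x ∈ W, t x ∈ W) (k : ℕ) (x : W),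
      (((sff m (t.restrict h) : End F W) ^ k) x : ι → F) = (sff m t ^ k) x := by
    intro W h k
    induction k with
    | zero => intro x; rfl
    | succ k ih => intro x; rw [pow_succ, pow_succ, Module.End.mul_apply, ih]; rfl
  have hA : IsNilpotent (sff m (LinearMap.toMatrix b₁ b₁ (t.restrict h₁))) := by
    rw [← toMatrix_sff]
    refine IsNilpotent.map ⟨n, ?_⟩ (LinearMap.toMatrixAlgEquiv b₁)
    ext1 x
    exact Subtype.ext ((res h₁ n x).trans x.2)
  have hB : IsUnit (sff m (LinearMap.toMatrix b₂ b₂ (t.restrict h₂))) := by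
    rw [← toMatrix_sff]
    refine IsUnit.map (LinearMap.toMatrixAlgEquiv b₂) ((isUnit_pow_iff hn.ne').1 ?_)
    rw [LinearMap.isUnit_iff_ker_eq_bot, eq_bot_iff]
    intro x hx
    have : (x : ι → F) ∈ LinearMap.ker (sff m t ^ n) :=
      (res h₂ n x).symm.trans (congrArg Subtype.val hx)
    exact Subtype.ext ((Submodule.disjoint_def.1 hc.disjoint) _ this x.2)
  refine ⟨(Pi.basisFun F ι).toMatrix b, b.toMatrix (Pi.basisFun F ι), _, _,
    Basis.toMatrix_mul_toMatrix_flip _ _, Basis.toMatrix_mul_toMatrix_flip _ _,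
    fun i => by ext r; simp [Basis.toMatrix_apply, e1],
    fun i => by ext r; simp [Basis.toMatrix_apply, e2], ?_, hA, hB, ?_⟩
  · rw [← e3 t h₁ h₂, basis_toMatrix_mul_linearMap_toMatrix]
    conv_lhs => rw [← LinearMap.toMatrix'_toLin' T, ← LinearMap.toMatrix_eq_toMatrix']
    rw [linearMap_toMatrix_mul_basis_toMatrix, ht]
  · rw [← natTrailingDegree_fromBlocks hA ((Matrix.isUnit_iff_isUnit_det _).1 hB).ne_zero,
      ← sff_blocks, ← e3 t h₁ h₂, ← toMatrix_sff, LinearMap.charpoly_toMatrix, ht,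
      ← Matrix.charpoly_toLin']
    congr 2
    exact sff_map Matrix.toLinAlgEquiv' m T

end blocks

/-- Gram matrix of an orthogonal sum -/
abbrev JJ (F : Type*) [Field F] (a b : ℕ) :
    Matrix ((Fin a ⊕ Fin a) ⊕ (Fin b ⊕ Fin b)) ((Fin a ⊕ Fin a) ⊕ (Fin b ⊕ Fin b)) F :=
  fromBlocks (Matrix.J (Fin a) F) 0 0 (Matrix.J (Fin b) F)

theorem gram_apply {ι κ : Type*} [Fintype ι] (J : Matrix ι ι F) (P : Matrix ι κ F) (i j : κ) :
    (Pᵀ * J * P) i j = Pᵀ i ⬝ᵥ J *ᵥ Pᵀ j := by
  rw [Matrix.mul_assoc]; rfl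

theorem exists_sp_fit {ι : Type*} [Fintype ι] [DecidableEq ι] {J : Matrix ι ι F} (hJ : IsUnit J)
    (halt : ∀ v, v ⬝ᵥ J *ᵥ v = 0) (T : Matrix ι ι F) (m : F) {U : Matrix ι ι F}
    (hU : Commute U (sff m T)) (hadj : J * sff m T = (sff m T)ᵀ * J * U) :
    ∃ (a b : ℕ) (P : Matrix ι ((Fin a ⊕ Fin a) ⊕ (Fin b ⊕ Fin b)) F) 
      (Q : Matrix ((Fin a ⊕ Fin a) ⊕ (Fin b ⊕ Fin b)) ι F)
      (A : Matrix (Fin a ⊕ Fin a) (Fin a ⊕ Fin a) F) (B : Matrix (Fin b ⊕ Fin b) (Fin b ⊕ Fin b) F),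
      P * Q = 1 ∧ Q * P = 1 ∧ Pᵀ * J * P = JJ F a b ∧
      T * P = P * fromBlocks A 0 0 B ∧ IsNilpotent (sff m A) ∧ IsUnit (sff m B) ∧
      (sff m T).charpoly.natTrailingDegree = a + a ∧ a + a + (b + b) = Fintype.card ι := by
  obtain ⟨n, hc, hn⟩ := exists_fitting_sub (sff m (toLin' T))
  have hp : ∀ k, J * sff m T ^ k = (sff m T ^ k)ᵀ * J * U ^ k := by
    intro k
    induction k with
    | zero => simp
    | succ k ih =>
      rw [pow_succ, ← Matrix.mul_assoc, ih, Matrix.mul_assoc, (hU.pow_left k).eq,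
        ← Matrix.mul_assoc, Matrix.mul_assoc _ J, hadj, ← pow_succ, pow_succ', transpose_mul,
        pow_succ']
      simp only [Matrix.mul_assoc]
  have hl : ∀ x, (sff m (toLin' T) ^ n) x = sff m T ^ n *ᵥ x := by
    intro x
    have := sff_map (Matrix.toLinAlgEquiv' (R := F) (n := ι)) m T
    change _ = sff m (toLin' T) at this
    rw [← this, ← map_pow]; rfl
  let B := Matrix.toBilin' J
  have hB : ∀ x y, B x y = x ⬝ᵥ J *ᵥ y := Matrix.toBilin'_apply' J
  have hsw : ∀ x y, B y x = -B x y := by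
    intro x y
    have h := halt (x + y)
    simp only [mulVec_add, add_dotProduct, dotProduct_add, halt, zero_add, add_zero] at h
    rw [hB, hB]; linear_combination h
  have ho : ∀ x ∈ LinearMap.ker (sff m (toLin' T) ^ n), ∀ y ∈ LinearMap.range (sff m (toLin' T) ^ n),
      B x y = 0 := by
    rintro x hx _ ⟨y, rfl⟩
    rw [LinearMap.mem_ker, hl] at hx
    rw [hB, hl, mulVec_mulVec, hp, Matrix.mul_assoc, ← mulVec_mulVec, dotProduct_mulVec,
      vecMul_transpose, hx, zero_dotProduct]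
  have hnd : ∀ x, (∀ y, B x y = 0) → x = 0 := by
    intro x hx
    obtain ⟨u, rfl⟩ := hJ
    ext i
    have := hx ((u⁻¹).val *ᵥ Pi.single i 1)
    rw [hB, mulVec_mulVec, Units.mul_inv, one_mulVec] at this
    simpa using this
  obtain ⟨a, b₁, g₁⟩ := HForm.exists_symplectic_basis
    (B.restrict (LinearMap.ker (sff m (toLin' T) ^ n))) (fun v => (hB _ _).trans (halt _))
    fun x hx => Subtype.ext (hnd _ fun y => by
      obtain ⟨u, hu, v, hv, rfl⟩ := Submodule.mem_sup.1 (hc.sup_eq_top ▸ Submodule.mem_top (x := y))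
      rw [map_add, ho _ x.2 _ hv, add_zero]; exact hx ⟨u, hu⟩)
  obtain ⟨b, b₂, g₂⟩ := HForm.exists_symplectic_basis
    (B.restrict (LinearMap.range (sff m (toLin' T) ^ n))) (fun v => (hB _ _).trans (halt _))
    fun x hx => Subtype.ext (hnd _ fun y => by
      obtain ⟨u, hu, v, hv, rfl⟩ := Submodule.mem_sup.1 (hc.sup_eq_top ▸ Submodule.mem_top (x := y))
      rw [map_add, hsw, ho _ hu _ x.2, neg_zero, zero_add]; exact hx ⟨v, hv⟩)
  obtain ⟨P, Q, A, C, k1, k2, k3, k4, k5, k6, k7, k8⟩ := fit_of_bases T m rfl hc hn b₁ b₂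
  refine ⟨a, b, P, Q, A, C, k1, k2, ?_, k5, k6, k7, by simpa using k8, ?_⟩
  · ext i j
    rw [gram_apply, ← hB]
    rcases i with i | i <;> rcases j with j | j
    · rw [k3, k3]; exact g₁ i j
    · rw [k3, k4]; exact ho _ (b₁ i).2 _ (b₂ j).2
    · rw [k3, k4, hsw, ho _ (b₁ j).2 _ (b₂ i).2, neg_zero]; rfl
    · rw [k4, k4]; exact g₂ i j
  · have := Submodule.finrank_add_eq_of_isCompl hc
    rw [finrank_eq_card_basis b₁, finrank_eq_card_basis b₂] at this
    simpa using this

theorem isUnit_J (a : ℕ) : IsUnit (Matrix.J (Fin a) F) :=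
  (Matrix.isUnit_iff_isUnit_det _).2 (Matrix.isUnit_det_J _ _)

theorem alt_J (a : ℕ) (v : Fin a ⊕ Fin a → F) : v ⬝ᵥ Matrix.J (Fin a) F *ᵥ v = 0 := by
  simp [Matrix.J, fromBlocks_mulVec, neg_mulVec, dotProduct, mul_comm]

theorem isUnit_JJ (a b : ℕ) : IsUnit (JJ F a b) := by
  rw [Matrix.isUnit_iff_isUnit_det, det_fromBlocks_zero₁₂]
  exact (Matrix.isUnit_det_J _ _).mul (Matrix.isUnit_det_J _ _)

theorem alt_JJ (a b : ℕ) (v : (Fin a ⊕ Fin a) ⊕ (Fin b ⊕ Fin b) → F) : v ⬝ᵥ JJ F a b *ᵥ v = 0 := by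
  rw [fromBlocks_mulVec]
  conv_lhs => lhs; rw [← Sum.elim_comp_inl_inr v]
  rw [sumElim_dotProduct_sumElim]
  simp [alt_J]

/-- reindexing -/
def jjEquiv (a b : ℕ) : (Fin a ⊕ Fin a) ⊕ (Fin b ⊕ Fin b) ≃ Fin (a + b) ⊕ Fin (a + b) :=
  (Equiv.sumSumSumComm _ _ _ _).trans (finSumFinEquiv.sumCongr finSumFinEquiv)

theorem jj_reindex (a b : ℕ) :
    Matrix.reindex (jjEquiv a b) (jjEquiv a b) (JJ F a b) = Matrix.J (Fin (a + b)) F := by
  rw [← Equiv.eq_symm_apply]
  ext i j
  rcases i with (i | i) | (i | i) <;> rcases j with (j | j) | (j | j) <;>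
    simp [jjEquiv, Matrix.J, Matrix.one_apply, Fin.ext_iff] <;> omega

section reindex
variable {ι κ : Type*} [Fintype ι] [DecidableEq ι] [Fintype κ] [DecidableEq κ] (e : ι ≃ κ)

theorem card_isoM_reindex (J : Matrix ι ι F) :
    Nat.card (isoM (Matrix.reindex e e J)) = Nat.card (isoM J) := by
  symm
  refine Nat.card_congr ((Units.mapEquiv (Matrix.reindexAlgEquiv F F e).toMulEquiv).toEquiv.subtypeEquiv
    fun g => ?_)
  change _ = _ ↔ (reindexAlgEquiv F F e g.val)ᵀ * reindexAlgEquiv F F e J *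
    reindexAlgEquiv F F e g.val = reindexAlgEquiv F F e J
  change _ ↔ (reindexAlgEquiv F F e g.valᵀ) * _ * _ = _
  rw [← map_mul, ← map_mul, (reindexAlgEquiv F F e).injective.eq_iff]

theorem srel_reindex (l n : F) (J T : Matrix ι ι F) :
    SRel l n (Matrix.reindex e e J) (Matrix.reindex e e T) ↔ SRel l n J T := by
  change l • (reindexAlgEquiv F F e Tᵀ * reindexAlgEquiv F F e J * reindexAlgEquiv F F e T) +
    reindexAlgEquiv F F e Tᵀ * reindexAlgEquiv F F e J +
    reindexAlgEquiv F F e J * reindexAlgEquiv F F e T + n • reindexAlgEquiv F F e J = 0 ↔ _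
  simp only [← map_mul, ← map_smul, ← map_add, map_eq_zero_iff _ (reindexAlgEquiv F F e).injective]
  rfl

theorem charpoly_sff_reindex (n : F) (T : Matrix ι ι F) :
    (sff n (Matrix.reindex e e T)).charpoly = (sff n T).charpoly := by
  have := sff_map (reindexAlgEquiv F F e) n T
  change reindex e e _ = sff n (reindex e e T) at this
  rw [← this, Matrix.charpoly_reindex]

end reindex

theorem card_isoM_J (a : ℕ) :
    Nat.card (isoM (Matrix.J (Fin a) F)) = Nat.card (symplecticGroup (Fin a) F) := by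
  refine Nat.card_congr (Equiv.ofBijective (fun g => ⟨g.1.val, SymplecticGroup.mem_iff'.2 g.2⟩)
    ⟨fun g h e => Subtype.ext (Units.ext (congrArg Subtype.val e)), fun g => ?_⟩)
  exact ⟨⟨Matrix.GeneralLinearGroup.mkOfDetNeZero g.1 (SymplecticGroup.symplectic_det g.2).ne_zero,
    SymplecticGroup.mem_iff'.1 g.2⟩, rfl⟩

/-- number of solutions with nilpotent Fitting polynomial -/
noncomputable def cN (l n : F) (a : ℕ) : ℕ :=
  Nat.card {T : Matrix (Fin a ⊕ Fin a) (Fin a ⊕ Fin a) F //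
    IsNilpotent (sff n T) ∧ SRel l n (Matrix.J (Fin a) F) T}

/-- number of solutions with invertible Fitting polynomial -/
noncomputable def cU (l n : F) (a : ℕ) : ℕ :=
  Nat.card {T : Matrix (Fin a ⊕ Fin a) (Fin a ⊕ Fin a) F //
    IsUnit (sff n T) ∧ SRel l n (Matrix.J (Fin a) F) T}

/-- adjointness hypothesis -/
def SAdj (l n : F) : Prop := ∀ (ι : Type) [Fintype ι] [DecidableEq ι] (J T : Matrix ι ι F),
  SRel l n J T → ∃ U, Commute U (sff n T) ∧ J * sff n T = (sff n T)ᵀ * J * U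

theorem srel_blocks {α β : Type*} [Fintype α] [DecidableEq α] [Fintype β] [DecidableEq β]
    (l n : F) (J₁ A : Matrix α α F) (J₂ B : Matrix β β F) :
    SRel l n (fromBlocks J₁ 0 0 J₂) (fromBlocks A 0 0 B) ↔ SRel l n J₁ A ∧ SRel l n J₂ B := by
  simp only [SRel, fromBlocks_transpose, fromBlocks_multiply, fromBlocks_smul, fromBlocks_add]
  rw [← fromBlocks_zero, fromBlocks_inj]
  simp

theorem card_part [Finite F] {l n : F} (h : SAdj l n) (a b : ℕ) :
    Nat.card {T // SRel l n (Matrix.J (Fin (a + b)) F) T ∧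
      (sff n T).charpoly.natTrailingDegree = a + a} *
      (Nat.card (symplecticGroup (Fin a) F) * Nat.card (symplecticGroup (Fin b) F)) =
      Nat.card (symplecticGroup (Fin (a + b)) F) * (cN l n a * cU l n b) := by
  have := card_blocks_induced (JJ F a b) n (SRel l n (JJ F a b))
    (fun T => SRel l n (JJ F a b) T ∧ (sff n T).charpoly.natTrailingDegree = a + a)
    (fun g hg T hT => hT.cj hg) (fun T => by
      constructor
      · rintro ⟨h1, h2⟩
        obtain ⟨U, u1, u2⟩ := h _ _ T h1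
        obtain ⟨a', b', P, Q, A, B, k1, k2, k3, k4, k5, k6, k7, k8⟩ :=
          exists_sp_fit (isUnit_JJ a b) (alt_JJ a b) T n u1 u2
        simp only [Fintype.card_sum, Fintype.card_fin] at k8
        obtain rfl : a' = a := by omega
        obtain rfl : b' = b := by omega
        refine ⟨⟨P, Q, k1, k2⟩, k3, A, B, k5, k6, h1.of_semiconj k3 k4, ?_⟩
        change P * _ * Q = T
        rw [← k4, Matrix.mul_assoc, k1, Matrix.mul_one]
      · rintro ⟨g, hg, A, B, h1, h2, h3, rfl⟩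
        refine ⟨h3.cj hg, ?_⟩
        rw [charpoly_sff_cj, sff_blocks, natTrailingDegree_fromBlocks h1
          ((Matrix.isUnit_iff_isUnit_det _).1 h2).ne_zero]
        simp)
  convert this using 2
  · rw [← jj_reindex]
    symm
    refine Nat.card_congr ((Matrix.reindex (jjEquiv a b) (jjEquiv a b)).subtypeEquiv fun T => ?_)
    rw [srel_reindex, charpoly_sff_reindex]
  · rw [← card_isoM_J, ← card_isoM_J, ← Nat.card_prod]
    refine Nat.card_congr ((Equiv.subtypeProdEquivProd).symm.trans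
      (Equiv.subtypeEquivRight fun x => ?_))
    change _ ↔ (fromBlocks _ _ _ _)ᵀ * _ * fromBlocks _ _ _ _ = _
    simp only [fromBlocks_transpose, fromBlocks_multiply, fromBlocks_inj]
    simp
    rfl
  · rw [← card_isoM_J, ← jj_reindex, card_isoM_reindex]
  · rw [cN, cU, ← Nat.card_prod]
    refine Nat.card_congr ((Equiv.subtypeProdEquivProd).symm.trans
      (Equiv.subtypeEquivRight fun x => ?_))
    rw [srel_blocks]; tauto

theorem card_sum_parts [Finite F] {l n : F} (h : SAdj l n) (m : ℕ) :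
    (Nat.card {T // SRel l n (Matrix.J (Fin m) F) T} : ℚ) / Nat.card (symplecticGroup (Fin m) F) =
      ∑ p ∈ Finset.HasAntidiagonal.antidiagonal m, (cN l n p.1 : ℚ) / Nat.card (symplecticGroup (Fin p.1) F) *
        ((cU l n p.2 : ℚ) / Nat.card (symplecticGroup (Fin p.2) F)) := by
  classical
  have := Fintype.ofFinite F
  have h1 : Nat.card {T // SRel l n (Matrix.J (Fin m) F) T} = ∑ p ∈ Finset.HasAntidiagonal.antidiagonal m,
      Nat.card {T // SRel l n (Matrix.J (Fin m) F) T ∧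
        (sff n T).charpoly.natTrailingDegree = p.1 + p.1} := by
    rw [Nat.card_eq_fintype_card, Fintype.card_subtype, Finset.card_eq_sum_card_fiberwise
      (f := fun T => ((sff n T).charpoly.natTrailingDegree / 2,
        m - (sff n T).charpoly.natTrailingDegree / 2)) (t := Finset.HasAntidiagonal.antidiagonal m)]
    · refine Finset.sum_congr rfl fun p hp => ?_
      rw [Nat.card_eq_fintype_card, Fintype.card_subtype, Finset.filter_filter]
      congr 1
      refine Finset.filter_congr fun T _ => and_congr_right fun hT => ?_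
      obtain ⟨U, u1, u2⟩ := h _ _ _ hT
      obtain ⟨a', b', P, Q, A, B, k1, k2, k3, k4, k5, k6, k7, k8⟩ :=
        exists_sp_fit (isUnit_J m) (alt_J m) _ n u1 u2
      rw [Finset.HasAntidiagonal.mem_antidiagonal] at hp
      rw [k7, Prod.ext_iff]; simp only; omega
    · intro T _
      have := Polynomial.natTrailingDegree_le_natDegree (sff n T).charpoly
      simp at this ⊢; omega
  rw [h1, Nat.cast_sum, Finset.sum_div]
  refine Finset.sum_congr rfl fun p hp => ?_
  obtain ⟨a, b⟩ := p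
  obtain rfl := Finset.HasAntidiagonal.mem_antidiagonal.1 hp
  have := congrArg (Nat.cast (R := ℚ)) (card_part h a b)
  have pos : ∀ k, (Nat.card (symplecticGroup (Fin k) F) : ℚ) ≠ 0 := fun k => by
    exact_mod_cast Nat.card_pos.ne'
  push_cast at this
  field_simp [pos]
  linear_combination this

theorem sadj_one : SAdj (1 : F) 0 := by
  intro ι _ _ J T h
  simp only [SRel, one_smul, zero_smul, add_zero] at h
  simp only [sff, zero_smul, add_zero]
  refine ⟨-(1 + T), ((Commute.one_left T).add_left (Commute.refl T)).neg_left, ?_⟩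
  rw [Matrix.mul_neg, Matrix.mul_add, Matrix.mul_one, eq_neg_iff_add_eq_zero, ← h]
  abel

theorem srel_two {ι : Type*} [Fintype ι] [DecidableEq ι] {J T : Matrix ι ι F} :
    SRel (0 : F) (-1) J T ↔ Tᵀ * J + J * T = J := by
  simp only [SRel, zero_smul, zero_add, neg_smul, one_smul, add_neg_eq_zero]

theorem sff_neg_one {A : Type*} [Ring A] [Algebra F A] (T : A) : sff (-1 : F) T = T * (1 - T) := by
  rw [sff, mul_sub, mul_one, neg_one_smul, sub_eq_add_neg]

theorem sff_zero {A : Type*} [Ring A] [Algebra F A] (T : A) : sff (0 : F) T = T := by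
  simp [sff]

theorem sadj_two : SAdj (0 : F) (-1) := by
  intro ι _ _ J T h
  rw [srel_two] at h
  refine ⟨1, Commute.one_left _, ?_⟩
  have h1 : J * T = (1 - T)ᵀ * J := by
    rw [transpose_sub, transpose_one, Matrix.sub_mul, Matrix.one_mul, eq_sub_iff_add_eq', h]
  have h2 : J * (1 - T) = Tᵀ * J := by
    rw [Matrix.mul_sub, Matrix.mul_one, sub_eq_iff_eq_add, h]
  rw [sff_neg_one, transpose_mul, ← Matrix.mul_assoc, h1, Matrix.mul_assoc, h2, Matrix.mul_one,
    Matrix.mul_assoc]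

theorem srel_one {ι : Type*} [Fintype ι] [DecidableEq ι] {J T : Matrix ι ι F} :
    SRel (1 : F) 0 J T ↔ (1 + T)ᵀ * J * (1 + T) = J := by
  simp only [SRel, one_smul, zero_smul, add_zero, transpose_add, transpose_one, Matrix.add_mul,
    Matrix.mul_add, Matrix.one_mul, Matrix.mul_one]
  constructor
  · intro h; linear_combination (norm := abel) h
  · intro h; linear_combination (norm := abel) h

/-- symplectic matrices as solutions of the first relation -/
def spRelEquiv (m : ℕ) : symplecticGroup (Fin m) F ≃ {T // SRel (1 : F) 0 (Matrix.J (Fin m) F) T} :=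
  (Equiv.subRight (1 : Matrix (Fin m ⊕ Fin m) (Fin m ⊕ Fin m) F)).subtypeEquiv fun g => by
    rw [srel_one, SymplecticGroup.mem_iff']; simp

theorem card_srel_two [Finite F] (m : ℕ) :
    Nat.card {T // SRel (0 : F) (-1) (Matrix.J (Fin m) F) T} = Nat.card F ^ (2 * m ^ 2 + m) := by
  classical
  let T₀ : Matrix (Fin m ⊕ Fin m) (Fin m ⊕ Fin m) F := fromBlocks 1 0 0 0
  have hJ := J_squared (Fin m) F
  have h0 : T₀ᵀ * Matrix.J (Fin m) F + Matrix.J (Fin m) F * T₀ = Matrix.J (Fin m) F := by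
    simp [T₀, Matrix.J, fromBlocks_transpose, fromBlocks_multiply, fromBlocks_add]
  have e1 : {T // SRel (0 : F) (-1) (Matrix.J (Fin m) F) T} ≃
      {S : Matrix (Fin m ⊕ Fin m) (Fin m ⊕ Fin m) F // ∀ i j, S i j = S j i} := by
    refine Equiv.subtypeEquiv ((Equiv.subRight T₀).trans (isUnit_J m).unit.mulLeft) fun T => ?_
    rw [srel_two]
    change _ ↔ ∀ i j, (Matrix.J (Fin m) F * (T - T₀)) i j = (Matrix.J (Fin m) F * (T - T₀))ᵀ i j
    rw [ext_iff, transpose_mul, J_transpose, transpose_sub, Matrix.mul_sub, Matrix.mul_neg,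
      Matrix.sub_mul]
    constructor
    · intro h; linear_combination (norm := abel) h - h0
    · intro h; linear_combination (norm := abel) h + h0
  rw [Nat.card_congr (e1.trans Sym2.lift), Nat.card_fun, Nat.card_eq_fintype_card (α := Sym2 _),
    Sym2.card, Nat.choose_two_right]
  congr 1
  simp only [Fintype.card_sum, Fintype.card_fin, Nat.add_sub_cancel]
  rw [show (m + m + 1) * (m + m) = (2 * m ^ 2 + m) * 2 by ring, Nat.mul_div_cancel _ two_pos]

theorem isUnit_sff_two {ι : Type*} [Fintype ι] [DecidableEq ι] {J T : Matrix ι ι F} (hJ : IsUnit J)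
    (h : SRel (0 : F) (-1) J T) : IsUnit (sff (-1 : F) T) ↔ IsUnit T := by
  rw [srel_two] at h
  have h2 : J * (1 - T) = Tᵀ * J := by
    rw [Matrix.mul_sub, Matrix.mul_one, sub_eq_iff_eq_add, h]
  have h3 := congrArg det h2
  rw [det_mul, det_mul, det_transpose, mul_comm,
    ((isUnit_iff_isUnit_det _).1 hJ).mul_left_inj] at h3
  rw [sff_neg_one, isUnit_iff_isUnit_det, isUnit_iff_isUnit_det, det_mul, h3]
  simp

theorem srel_inv {ι : Type*} [Fintype ι] [DecidableEq ι] (J : Matrix ι ι F) (u : GL ι F) :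
    SRel (1 : F) 0 J u.val ↔ SRel (0 : F) (-1) J (-u⁻¹).val := by
  rw [srel_two]
  simp only [SRel, one_smul, zero_smul, add_zero, Units.val_neg, transpose_neg, Matrix.neg_mul,
    Matrix.mul_neg]
  have i1 : (u⁻¹).valᵀ * u.valᵀ = 1 := by rw [← transpose_mul]; simp
  have i2 : u.valᵀ * (u⁻¹).valᵀ = 1 := by rw [← transpose_mul]; simp
  constructor
  · intro h
    have := congrArg (fun M => (u⁻¹).valᵀ * M * (u⁻¹).val) h
    simp only [Matrix.mul_add, Matrix.add_mul, ← Matrix.mul_assoc, i1, Matrix.one_mul,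
      Matrix.mul_zero, Matrix.zero_mul, Units.mul_inv_cancel_right] at this
    linear_combination (norm := abel) -this
  · intro h
    have := congrArg (fun M => u.valᵀ * M * u.val) h
    simp only [Matrix.mul_add, Matrix.add_mul, ← Matrix.mul_assoc, i2, Matrix.one_mul,
      Matrix.mul_neg, Matrix.neg_mul, Units.inv_mul_cancel_right] at this
    linear_combination (norm := abel) -this

theorem card_unit_sub {A : Type*} [Monoid A] (P : A → Prop) :
    Nat.card {T // IsUnit T ∧ P T} = Nat.card {u : Aˣ // P u.val} := by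
  symm
  refine Nat.card_congr (Equiv.ofBijective (fun u => ⟨u.1.val, u.1.isUnit, u.2⟩) ⟨?_, ?_⟩)
  · intro u v e; exact Subtype.ext (Units.ext (congrArg Subtype.val e))
  · rintro ⟨_, ⟨u, rfl⟩, h⟩; exact ⟨⟨u, h⟩, rfl⟩

theorem cU_eq (m : ℕ) : cU (1 : F) 0 m = cU (0 : F) (-1) m := by
  rw [cU, cU]
  simp only [sff_zero]
  rw [Nat.card_congr (Equiv.subtypeEquivRight fun T => and_congr_left (isUnit_sff_two (isUnit_J m))),
    card_unit_sub, card_unit_sub]
  exact Nat.card_congr (((Equiv.inv _).trans (Equiv.neg _)).subtypeEquiv fun u => srel_inv _ u)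

theorem eq_zero_of_intertwine {α β : Type*} [Fintype α] [DecidableEq α] [Fintype β] [DecidableEq β]
    {N : Matrix α α F} {A : Matrix β β F} (hN : IsNilpotent N) (hA : IsUnit A) {h : Matrix α β F}
    (H : h * A = N * h) : h = 0 := by
  obtain ⟨m, hm⟩ := hN
  have : ∀ k, h * A ^ k = N ^ k * h := fun k => by
    induction k with
    | zero => simp
    | succ k ih => rw [pow_succ, ← Matrix.mul_assoc, ih, Matrix.mul_assoc, H, pow_succ,
        Matrix.mul_assoc]
  have h5 := this m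
  rw [hm, Matrix.zero_mul] at h5
  obtain ⟨w, hw⟩ := hA.pow m
  rw [← Matrix.mul_one h, ← w.mul_inv, ← Matrix.mul_assoc, hw, h5, Matrix.zero_mul]

theorem isNilpotent_transpose {α : Type*} [Fintype α] [DecidableEq α] {N : Matrix α α F}
    (h : IsNilpotent N) : IsNilpotent Nᵀ := by
  obtain ⟨k, hk⟩ := h
  exact ⟨k, by rw [← transpose_pow, hk, transpose_zero]⟩

theorem nil_blocks_iff {α β : Type*} [Fintype α] [DecidableEq α] [Fintype β] [DecidableEq β]
    (A : Matrix α α F) (B : Matrix β β F) :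
    IsNilpotent (fromBlocks A 0 0 B) ↔ IsNilpotent A ∧ IsNilpotent B := by
  constructor
  · rintro ⟨k, hk⟩
    rw [fromBlocks_diagonal_pow, ← fromBlocks_zero, fromBlocks_inj] at hk
    exact ⟨⟨k, hk.1⟩, ⟨k, hk.2.2.2⟩⟩
  · rintro ⟨⟨k, hk⟩, ⟨l, hl⟩⟩
    refine ⟨k + l, ?_⟩
    rw [fromBlocks_diagonal_pow, pow_add, hk, zero_mul, pow_add, hl, mul_zero, fromBlocks_zero]

theorem card_le_of_mul_eq_one {α β : Type*} [Fintype α] [DecidableEq α] [Fintype β]
    {C : Matrix α β F} {D : Matrix β α F} (h : C * D = 1) : Fintype.card α ≤ Fintype.card β := by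
  have := Matrix.rank_mul_le_left C D
  rw [h, Matrix.rank_one] at this
  exact this.trans (Matrix.rank_le_card_width C)

theorem srel_lag {a : ℕ} (N A : Matrix (Fin a) (Fin a) F) :
    SRel (0 : F) (-1) (J (Fin a) F) (fromBlocks N 0 0 A) ↔ A = 1 - Nᵀ := by
  rw [srel_two]
  simp only [Matrix.J, fromBlocks_transpose, fromBlocks_multiply, fromBlocks_add, fromBlocks_inj]
  simp only [transpose_zero, Matrix.mul_zero, Matrix.zero_mul, add_zero, zero_add, Matrix.mul_neg,
    Matrix.mul_one, Matrix.one_mul, Matrix.neg_mul, neg_zero, true_and, and_true]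
  constructor
  · intro h; linear_combination (norm := abel) -h.1
  · rintro rfl; simp only [transpose_sub, transpose_one, transpose_transpose]
    constructor <;> abel

theorem exists_lag {a : ℕ} (T : Matrix (Fin a ⊕ Fin a) (Fin a ⊕ Fin a) F)
    (h1 : IsNilpotent (sff (-1 : F) T)) (h2 : SRel (0 : F) (-1) (J (Fin a) F) T) :
    ∃ g ∈ isoM (J (Fin a) F), ∃ A B, IsNilpotent (sff (0 : F) A) ∧ IsUnit (sff (0 : F) B) ∧
      SRel (0 : F) (-1) (J (Fin a) F) (fromBlocks A 0 0 B) ∧ cj g (fromBlocks A 0 0 B) = T := by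
  obtain ⟨n, hc, hn⟩ := exists_fitting_sub (sff (0 : F) (toLin' T))
  obtain ⟨k, hk⟩ : ∃ k, finrank F (LinearMap.ker (sff (0 : F) (toLin' T) ^ n)) = k := ⟨_, rfl⟩
  obtain ⟨l, hl⟩ : ∃ k, finrank F (LinearMap.range (sff (0 : F) (toLin' T) ^ n)) = k := ⟨_, rfl⟩
  obtain ⟨P, Q, N, A, k1, k2, -, -, k5, k6, k7, -⟩ := fit_of_bases T 0 rfl hc hn
    (Module.finBasisOfFinrankEq _ _ hk) (Module.finBasisOfFinrankEq _ _ hl)
  have hkl := Submodule.finrank_add_eq_of_isCompl hc
  rw [hk, hl] at hkl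
  simp only [finrank_fintype_fun_eq_card, Fintype.card_sum, Fintype.card_fin] at hkl
  rw [sff_zero] at k6 k7
  obtain ⟨G, hG⟩ : ∃ G, Pᵀ * J (Fin a) F * P = G := ⟨_, rfl⟩
  have r := h2.of_semiconj hG k5
  have hGT : Gᵀ = -G := by
    rw [← hG, transpose_mul, transpose_mul, transpose_transpose, J_transpose, Matrix.neg_mul,
      Matrix.mul_neg, Matrix.mul_assoc]
  have hGi : G * (Q * (-J (Fin a) F) * Qᵀ) = 1 := by
    have : P * (Q * (-J (Fin a) F) * Qᵀ) = -J (Fin a) F * Qᵀ := by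
      rw [← Matrix.mul_assoc, ← Matrix.mul_assoc, k1, Matrix.one_mul]
    rw [← hG, Matrix.mul_assoc, this, Matrix.mul_assoc, ← Matrix.mul_assoc (J _ F), Matrix.mul_neg,
      J_squared, neg_neg, Matrix.one_mul, ← transpose_mul, k2, transpose_one]
  have hnil : IsNilpotent (1 - A) := by
    have e : sff (-1 : F) (fromBlocks N 0 0 A) = Q * sff (-1 : F) T * P := by
      rw [sff_neg_one, sff_neg_one]
      have : fromBlocks N 0 0 A = Q * T * P := by
        rw [Matrix.mul_assoc, k5, ← Matrix.mul_assoc, k2, Matrix.one_mul]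
      rw [this]
      simp only [Matrix.mul_sub, Matrix.sub_mul, Matrix.mul_one, Matrix.mul_assoc]
      rw [← Matrix.mul_assoc P Q, k1, Matrix.one_mul]
    have e2 : ∀ (M : Matrix (Fin a ⊕ Fin a) (Fin a ⊕ Fin a) F) (j : ℕ), (Q * M * P) ^ (j + 1) = Q * M ^ (j + 1) * P := by
      intro M j
      induction j with
      | zero => simp
      | succ j ih =>
        rw [pow_succ, ih, pow_succ _ (j + 1)]
        simp only [Matrix.mul_assoc]
        rw [← Matrix.mul_assoc P Q, k1, Matrix.one_mul]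
    obtain ⟨j, hj⟩ := h1
    have : IsNilpotent (sff (-1 : F) (fromBlocks N 0 0 A)) :=
      ⟨j + 1, by rw [e, e2, pow_succ, hj]; simp⟩
    rw [sff_blocks, nil_blocks_iff, sff_neg_one, sff_neg_one] at this
    exact (IsUnit.isNilpotent_unit_mul_of_commute_iff k7
      ((Commute.one_left A).sub_left (Commute.refl A))).1 this.2
  rw [srel_two, ← fromBlocks_toBlocks G] at r
  simp only [fromBlocks_transpose, fromBlocks_multiply, fromBlocks_add, fromBlocks_inj,
    transpose_zero, Matrix.mul_zero, Matrix.zero_mul, add_zero, zero_add] at r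
  obtain ⟨r1, -, -, r4⟩ := r
  have z1 : G.toBlocks₁₁ = 0 := eq_zero_of_intertwine (isNilpotent_transpose k6)
    k6.isUnit_one_sub (by rw [Matrix.mul_sub, Matrix.mul_one, sub_eq_iff_eq_add, r1])
  have z2 : G.toBlocks₂₂ = 0 := eq_zero_of_intertwine (isNilpotent_transpose hnil) k7
    (by rw [transpose_sub, transpose_one, Matrix.sub_mul, Matrix.one_mul, eq_sub_iff_add_eq', r4])
  obtain ⟨H, hH⟩ : ∃ H, Q * (-J (Fin a) F) * Qᵀ = H := ⟨_, rfl⟩
  rw [hH, ← fromBlocks_toBlocks G, ← fromBlocks_toBlocks H, z1, z2, fromBlocks_multiply,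
    ← fromBlocks_one, fromBlocks_inj] at hGi
  simp only [Matrix.zero_mul, zero_add, add_zero] at hGi
  have c1 := card_le_of_mul_eq_one hGi.1
  have c2 := card_le_of_mul_eq_one hGi.2.2.2
  simp only [Fintype.card_fin] at c1 c2
  obtain rfl : k = a := by omega
  obtain rfl : l = k := by omega
  have i1 := hGi.1
  have i2 := mul_eq_one_comm.1 i1
  have hD : G.toBlocks₂₁ = -G.toBlocks₁₂ᵀ := by
    ext i j
    have := congrFun (congrFun hGT (.inl j)) (.inr i)
    simpa [toBlocks₂₁, toBlocks₁₂] using this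
  set C := G.toBlocks₁₂
  set D := H.toBlocks₂₁
  have hP' : (P * fromBlocks 1 0 0 (-D))ᵀ * J (Fin l) F * (P * fromBlocks 1 0 0 (-D)) =
      J (Fin l) F := by
    rw [transpose_mul]
    calc _ = (fromBlocks 1 0 0 (-D))ᵀ * (Pᵀ * J (Fin l) F * P) * fromBlocks 1 0 0 (-D) := by
          simp only [Matrix.mul_assoc]
      _ = _ := by
          rw [hG, ← fromBlocks_toBlocks G, z1, z2, hD]
          simp only [fromBlocks_transpose, fromBlocks_multiply, Matrix.J]
          simp [← transpose_mul, i1, C]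
  have hT : T * (P * fromBlocks 1 0 0 (-D)) =
      P * fromBlocks 1 0 0 (-D) * fromBlocks N 0 0 (C * A * D) := by
    rw [← Matrix.mul_assoc, k5, Matrix.mul_assoc, Matrix.mul_assoc]
    congr 1
    simp [fromBlocks_multiply, ← Matrix.mul_assoc, i2]
  have inv1 : P * fromBlocks 1 0 0 (-D) * (fromBlocks 1 0 0 (-C) * Q) = 1 := by
    rw [Matrix.mul_assoc, ← Matrix.mul_assoc (fromBlocks _ _ _ _)]
    simp [fromBlocks_multiply, i2, k1]
  refine ⟨⟨_, _, inv1, mul_eq_one_comm.1 inv1⟩, hP', N, C * A * D, by rwa [sff_zero], ?_,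
    h2.of_semiconj hP' hT, ?_⟩
  · rw [sff_zero]
    exact ((IsUnit.of_mul_eq_one _ i1).mul k7).mul (IsUnit.of_mul_eq_one _ i2)
  · change P * _ * _ * (_ * Q) = T
    rw [← hT, Matrix.mul_assoc, inv1, Matrix.mul_one]

theorem cN_two [Finite F] (a : ℕ) : cN (0 : F) (-1) a * Nat.card (GL (Fin a) F) =
    Nat.card (symplecticGroup (Fin a) F) * Nat.card F ^ (a * (a - 1)) := by
  have := card_blocks_induced (J (Fin a) F) 0 (SRel (0 : F) (-1) (J (Fin a) F))
    (fun T => IsNilpotent (sff (-1 : F) T) ∧ SRel (0 : F) (-1) (J (Fin a) F) T)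
    (fun g hg T hT => hT.cj hg) (fun T => by
      refine ⟨fun h => exists_lag T h.1 h.2, ?_⟩
      rintro ⟨g, hg, A, B, h1, h2, h3, rfl⟩
      refine ⟨?_, h3.cj hg⟩
      have s1 : sff (-1 : F) (cj g (fromBlocks A 0 0 B)) =
          g.val * sff (-1 : F) (fromBlocks A 0 0 B) * (g⁻¹).val := by
        rw [sff_semiconj _ (cj_mul_self g _).symm, Matrix.mul_assoc]; simp
      rw [srel_lag] at h3
      rw [sff_zero] at h1
      have : IsNilpotent (sff (-1 : F) (fromBlocks A 0 0 B)) := by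
        rw [sff_blocks, nil_blocks_iff, sff_neg_one, sff_neg_one, h3, sub_sub_cancel]
        exact ⟨((Commute.one_right A).sub_right (Commute.refl A)).isNilpotent_mul_right h1,
          ((Commute.one_left _).sub_left (Commute.refl _)).isNilpotent_mul_left
            (isNilpotent_transpose h1)⟩
      obtain ⟨k, hk⟩ := this
      exact ⟨k, by rw [s1, Units.conj_pow, hk, mul_zero, zero_mul]⟩)
  convert this using 2
  · rfl
  · symm
    refine Nat.card_congr (Equiv.ofBijective (fun x => x.1.1) ⟨?_, ?_⟩)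
    · rintro ⟨⟨u, v⟩, h⟩ ⟨⟨u', v'⟩, h'⟩ e
      obtain rfl : u = u' := e
      change (fromBlocks _ _ _ _)ᵀ * _ * fromBlocks _ _ _ _ = _ at h h'
      simp only [Matrix.J, fromBlocks_transpose, fromBlocks_multiply, fromBlocks_inj] at h h'
      have e1 : u.valᵀ * v.val = 1 := by simpa using h.2.1
      have e2 : u.valᵀ * v'.val = 1 := by simpa using h'.2.1
      refine Subtype.ext (Prod.ext rfl (Units.ext ?_))
      change v.val = v'.val
      rw [← Matrix.mul_one v.val, ← e2, ← Matrix.mul_assoc, mul_eq_one_comm.1 e1, Matrix.one_mul]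
    · intro u
      have i1 : (u⁻¹).valᵀ * u.valᵀ = 1 := by rw [← transpose_mul]; simp
      have i2 : u.valᵀ * (u⁻¹).valᵀ = 1 := by rw [← transpose_mul]; simp
      refine ⟨⟨(u, ⟨_, _, i1, i2⟩), ?_⟩, rfl⟩
      change (fromBlocks _ _ _ _)ᵀ * _ * fromBlocks _ _ _ _ = _
      simp only [Matrix.J, fromBlocks_transpose, fromBlocks_multiply, fromBlocks_inj]
      simp only [transpose_zero, Matrix.mul_zero, Matrix.zero_mul, add_zero, zero_add,
        Matrix.mul_neg, Matrix.mul_one, Matrix.neg_mul, neg_zero, true_and, and_true, i2,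
        transpose_transpose, Units.inv_mul]
  · exact (card_isoM_J a).symm
  · rw [← card_nilpotent]
    symm
    refine Nat.card_congr (Equiv.ofBijective (fun x => ⟨x.1.1, sff_zero (F := F) x.1.1 ▸ x.2.1⟩)
      ⟨?_, ?_⟩)
    · rintro ⟨⟨N, A⟩, h⟩ ⟨⟨N', A'⟩, h'⟩ e
      obtain rfl : N = N' := congrArg Subtype.val e
      exact Subtype.ext (Prod.ext rfl (((srel_lag _ _).1 h.2.2).trans ((srel_lag _ _).1 h'.2.2).symm))
    · rintro ⟨N, hN⟩
      exact ⟨⟨(N, 1 - Nᵀ), by rwa [sff_zero], by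
        rw [sff_zero]; exact (isNilpotent_transpose hN).isUnit_one_sub, (srel_lag _ _).2 rfl⟩, rfl⟩

end Cfsg.Agent.GLn
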