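import Cfsg.Agent.GLn.SpUni
import Cfsg.Agent.Polar.Count

/-! The number of unipotent elements of the symplectic group. -/

set_option autoImplicit false

open Matrix PowerSeries

namespace Cfsg.Agent.GLn

theorem rescale_eq_iff (y c : ℚ) (P : ℚ⟦X⟧) :
    rescale y P = (1 - C c * X) * P ↔
      ∀ n, coeff (n + 1) P * (1 - y ^ (n + 1)) = c * coeff n P := by
  rw [PowerSeries.ext_iff, ← Nat.and_forall_add_one]
  simp only [coeff_rescale, sub_mul, one_mul, map_sub, mul_assoc, coeff_C_mul, coeff_succ_X_mul,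
    coeff_zero_X_mul]
  simp only [pow_zero, one_mul, mul_zero, sub_zero, true_and]
  refine forall_congr' fun n => ⟨fun h => by linear_combination -h, fun h => by linear_combination -h⟩

theorem eq_of_rescale {y c : ℚ} (hy : ∀ n, y ^ (n + 1) ≠ 1) {P Q : ℚ⟦X⟧}
    (hP : rescale y P = (1 - C c * X) * P) (hQ : rescale y Q = (1 - C c * X) * Q)
    (h0 : coeff 0 P = coeff 0 Q) : P = Q := by
  rw [rescale_eq_iff] at hP hQ
  ext n
  induction n with
  | zero => exact h0
  | succ n ih =>
    refine mul_right_cancel₀ (sub_ne_zero.2 (hy n).symm) ?_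
    rw [hP, hQ, ih]

variable {F : Type*} [Field F] [Finite F]

theorem card_Sp_succ (m : ℕ) : (Nat.card (symplecticGroup (Fin (m + 1)) F) : ℚ) =
    Nat.card (symplecticGroup (Fin m) F) * Nat.card F ^ (2 * m + 1) *
      (Nat.card F ^ (2 * m + 2) - 1) := by
  have := Fintype.ofFinite F
  rw [Polar.card_symplecticGroup, Polar.card_symplecticGroup, Finset.prod_Icc_succ_top (by omega),
    Nat.card_eq_fintype_card]
  have : 1 ≤ Fintype.card F ^ (2 * (m + 1)) := Nat.one_le_pow _ _ Fintype.card_pos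
  push_cast [this]
  ring

theorem cN_one (m : ℕ) : cN (1 : F) 0 m = Nat.card F ^ (2 * m ^ 2) := by
  let s : ℕ → ℚ := fun k => Nat.card (symplecticGroup (Fin k) F)
  have hs : ∀ k, s k ≠ 0 := fun k => by simp only [s]; exact_mod_cast Nat.card_pos.ne'
  have hg : ∀ k, (Nat.card (GL (Fin k) F) : ℚ) ≠ 0 := fun k => by exact_mod_cast Nat.card_pos.ne'
  set q : ℚ := (Nat.card F : ℚ) with hq
  have q1 : 1 < q := by rw [hq]; exact_mod_cast Finite.one_lt_card
  have q0 : q ≠ 0 := by linarith
  have qk : ∀ k, q ^ (k + 1) - 1 ≠ 0 := fun k => (sub_pos.2 (one_lt_pow₀ q1 k.succ_ne_zero)).ne'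
  have s0 : s 0 = 1 := by
    have := Fintype.ofFinite F
    simp [s, Polar.card_symplecticGroup]
  let U : ℚ⟦X⟧ := mk fun k => cN (1 : F) 0 k / s k
  let D : ℚ⟦X⟧ := mk fun k => cU (1 : F) 0 k / s k
  let Z : ℚ⟦X⟧ := mk fun k => cN (0 : F) (-1) k / s k
  let T : ℚ⟦X⟧ := mk fun k => q ^ (2 * k ^ 2 + k) / s k
  have h1 : U * D = mk 1 := by
    ext k
    rw [coeff_mul]
    simp only [U, D, coeff_mk, Pi.one_apply]
    rw [← card_sum_parts sadj_one, ← Nat.card_congr (spRelEquiv k), div_self (hs k)]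
  have h2 : Z * D = T := by
    ext k
    rw [coeff_mul]
    simp only [Z, D, T, coeff_mk, cU_eq]
    rw [← card_sum_parts sadj_two, card_srel_two]; push_cast; rfl
  have hZ : ∀ k, coeff k Z = q ^ (k * (k - 1)) / Nat.card (GL (Fin k) F) := by
    intro k
    have := congrArg (Nat.cast (R := ℚ)) (cN_two (F := F) k)
    push_cast at this
    simp only [Z, coeff_mk]
    rw [div_eq_div_iff (hs k) (hg k), this, mul_comm]
  have fZ : rescale q⁻¹ Z = (1 - C q⁻¹ * X) * Z := by
    rw [rescale_eq_iff]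
    intro k
    rw [hZ, hZ, card_GL_succ, ← hq, inv_pow]
    have := qk k
    have := hg k
    field_simp
    rcases k with _ | k
    · simp
    · simp only [Nat.add_sub_cancel]; ring
  have fT : rescale (q⁻¹ * q⁻¹) T = (1 - C 1 * X) * T := by
    rw [rescale_eq_iff]
    intro k
    simp only [T, coeff_mk, s]
    rw [card_Sp_succ, ← hq, mul_pow, inv_pow]
    have := qk (2 * k + 1)
    have := hs k
    simp only [s] at this
    field_simp
    ring
  have hy : ∀ n, q⁻¹ ^ (n + 1) ≠ 1 := fun n h => qk n (by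
    rw [inv_pow, inv_eq_one] at h; rw [h, sub_self])
  have h3 : (1 - X) * T * rescale q⁻¹ T = Z := by
    refine eq_of_rescale hy ?_ fZ ?_
    · rw [map_mul, map_mul, ← RingHom.comp_apply (rescale _) (rescale _), ← rescale_mul, fT,
        map_sub, map_one, rescale_X]
      simp only [map_one]; ring
    · rw [hZ]
      simp [coeff_zero_eq_constantCoeff, T, s0, constantCoeff_mk, ← coeff_zero_eq_constantCoeff_apply
        (rescale _ _)]
  have hZ0 : Z ≠ 0 := fun e => by
    have := hZ 0
    rw [e] at this; simp at this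
  have h4 : (1 - X) * D * rescale q⁻¹ T = 1 := by
    refine mul_left_cancel₀ hZ0 ?_
    rw [mul_one]
    conv_rhs => rw [← h3, ← h2]
    rw [← h2]; ring
  have h5 : (1 - X) * D * U = 1 := by
    rw [mul_assoc, mul_comm D, h1, mul_comm, mk_one_mul_one_sub_eq_one]
  have h6 : U = rescale q⁻¹ T := by
    rw [← one_mul U, ← h4, mul_right_comm, h5, one_mul]
  have h7 := congrArg (coeff m) h6
  simp only [U, T, coeff_mk, coeff_rescale, inv_pow] at h7
  have := hs m
  apply Nat.cast_injective (R := ℚ)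
  push_cast
  field_simp at h7
  rw [← hq]
  refine mul_right_cancel₀ (pow_ne_zero m q0) ?_
  rw [h7, pow_add]

end Cfsg.Agent.GLn
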